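import Mathlib
import Cfsg.Agent.Lib.Helper64.BG.Fusion
import Cfsg.Agent.Lib.Helper1.HallConj
import Cfsg.Agent.Lib.Helper21.AxB

/-!
# Control of fusion in nilpotent Hall subgroups (helper16)

A generic induction: if the normalizers of Sylow subgroups control fusion of elements in every
subgroup `L` of `G` and the proper subgroups of `G` are solvable, then for every subgroup `L` and
every nilpotent Hall subgroup `K` of `L`, the normalizer of `K` in `L` controls fusion of elements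
of `K`.
-/

set_option autoImplicit false

namespace Cfsg.Agent.Lib.Helper16.BG

universe u

section rel

variable {G : Type u} [Group G] [Finite G]

/-- Hall conjugacy inside a solvable subgroup `C`. -/
theorem rel_hall_conj (C H₁ H₂ : Subgroup G) (hC : Group.IsSolvable ↥C)
    (h₁ : H₁ ≤ C) (h₂ : H₂ ≤ C) (hcard : Nat.card H₁ = Nat.card H₂)
    (hcop : (Nat.card H₂).Coprime (H₂.relIndex C)) :
    ∃ d ∈ C, ∀ v ∈ H₁, d * v * d⁻¹ ∈ H₂ := by
  have e₁ : Nat.card (H₁.subgroupOf C) = Nat.card H₂ := by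
    rw [← hcard]
    exact Nat.card_congr (Subgroup.subgroupOfEquivOfLe h₁).toEquiv
  have e₂ : Nat.card (H₂.subgroupOf C) = Nat.card H₂ :=
    Nat.card_congr (Subgroup.subgroupOfEquivOfLe h₂).toEquiv
  have hCcard : Nat.card ↥C = Nat.card H₂ * H₂.relIndex C := by
    rw [← e₂]
    exact (Subgroup.card_mul_index (H₂.subgroupOf C)).symm
  obtain ⟨g, hg⟩ := Cfsg.Agent.Lib.Helper1.hall_conj (Nat.card H₂) (H₂.relIndex C) hCcard hcop
    (H₁.subgroupOf C) (H₂.subgroupOf C) e₁ e₂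
  refine ⟨g, g.2, fun v hv => ?_⟩
  have h2 : (⟨v, h₁ hv⟩ : ↥C) ∈ H₁.subgroupOf C := Subgroup.mem_subgroupOf.mpr hv
  have h3 : g * ⟨v, h₁ hv⟩ * g⁻¹ ∈ H₂.subgroupOf C := by
    rw [← hg]
    exact Subgroup.smul_mem_pointwise_smul _ (MulAut.conj g) _ h2
  exact Subgroup.mem_subgroupOf.mp h3

/-- Sylow conjugacy inside a subgroup `C`. -/
theorem rel_sylow_conj {p : ℕ} [Fact p.Prime] (C P₁ P₂ : Subgroup G)
    (h₁ : P₁ ≤ C) (hp₁ : IsPGroup p P₁) (hp₂ : IsPGroup p P₂)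
    (hsyl : ¬ p ∣ P₂.relIndex C) : ∃ d ∈ C, ∀ v ∈ P₁, d * v * d⁻¹ ∈ P₂ := by
  have hq : IsPGroup p (P₂.subgroupOf C) := hp₂.comap_subtype
  exact Cfsg.Agent.Lib.Helper64.BG.conj_into_sylow C P₂ (hq.toSylow hsyl)
    (hq.toSylow_coe hsyl) P₁ hp₁ h₁

/-- The decomposition of a nilpotent subgroup into its `p`-part and its `p'`-part. -/
theorem nil_decomp (K : Subgroup G) (hK : Group.IsNilpotent ↥K) (p : ℕ) [Fact p.Prime] :
    ∃ (P K' : Subgroup G) (i j : ℤ), P ≤ K ∧ K' ≤ K ∧ IsPGroup p P ∧ (Nat.card K').Coprime p ∧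
      Nat.card P * Nat.card K' = Nat.card K ∧ (∀ u ∈ P, ∀ v ∈ K', u * v = v * u) ∧
      (∀ y ∈ K, y ^ i ∈ P ∧ y ^ j ∈ K' ∧ y ^ i * y ^ j = y) := by
  obtain ⟨S⟩ : Nonempty (Sylow p ↥K) := inferInstance
  have hnc := @Group.normalizerCondition_of_isNilpotent ↥K _ hK
  have hSn : (S : Subgroup ↥K).Normal := Sylow.normal_of_normalizerCondition hnc S
  obtain ⟨H₀, hH₀⟩ := Subgroup.exists_right_complement'_of_coprime (N := (S : Subgroup ↥K))
    S.card_coprime_index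
  obtain ⟨a, ha⟩ : ∃ a, a = Nat.card (S : Subgroup ↥K) := ⟨_, rfl⟩
  obtain ⟨m, hm⟩ : ∃ m, m = Nat.card H₀ := ⟨_, rfl⟩
  have ham : a * m = Nat.card ↥K := by
    rw [ha, hm]
    exact hH₀.card_mul_card
  have hmp : m.Coprime p := by
    have h1 : (S : Subgroup ↥K).index = m := by
      rw [hm]
      exact hH₀.symm.index_eq_card
    have h2 := S.not_dvd_index
    rw [h1] at h2
    exact ((Nat.Prime.coprime_iff_not_dvd Fact.out).mpr h2).symm
  obtain ⟨k, hk⟩ := IsPGroup.iff_card.mp S.isPGroup'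
  have hcop : m.Coprime a := by
    rw [ha, hk]
    exact Nat.Coprime.pow_right k hmp
  have hb := Nat.gcd_eq_gcd_ab m a
  rw [hcop.gcd_eq_one] at hb
  have hcomm : ∀ s ∈ (S : Subgroup ↥K), ∀ h ∈ H₀, s * h = h * s := by
    intro s hs h hh
    have hos : orderOf s ∣ a := by
      have := orderOf_dvd_natCard (⟨s, hs⟩ : (S : Subgroup ↥K))
      rw [Subgroup.orderOf_mk] at this
      rw [ha]
      exact this
    have hoh : orderOf h ∣ m := by
      have := orderOf_dvd_natCard (⟨h, hh⟩ : H₀)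
      rw [Subgroup.orderOf_mk] at this
      rw [hm]
      exact this
    exact (Cfsg.Agent.Lib.Helper21.commute_of_coprime_of_isNilpotent ↥K s h
      (Nat.Coprime.coprime_dvd_left hos (Nat.Coprime.coprime_dvd_right hoh hcop.symm))).eq
  have hmemS : ∀ z : ↥K, z ^ a = 1 → z ∈ (S : Subgroup ↥K) := by
    intro z hz
    have h1 : IsPGroup p (Subgroup.zpowers z) := by
      rintro ⟨w, hw⟩
      obtain ⟨e, rfl⟩ := Subgroup.mem_zpowers_iff.mp hw
      refine ⟨k, Subtype.ext ?_⟩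
      show (z ^ e) ^ p ^ k = 1
      rw [← hk, ← ha, ← zpow_natCast, ← zpow_mul, mul_comm, zpow_mul, zpow_natCast, hz, one_zpow]
    obtain ⟨Q, hQ⟩ := h1.exists_le_sylow
    have := Sylow.unique_of_normal S hSn
    have hQS : Q = S := Subsingleton.elim _ _
    rw [← hQS]
    exact hQ (Subgroup.mem_zpowers _)
  have hmemH : ∀ z : ↥K, z ^ m = 1 → z ∈ H₀ := by
    intro z hz
    obtain ⟨⟨s, h⟩, hsh, -⟩ := (Subgroup.isComplement'_def.mp hH₀).existsUnique z
    have hsh' : (s : ↥K) * (h : ↥K) = z := hsh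
    have hs1 : (s : ↥K) ^ a = 1 := by
      have h0 : orderOf (s : ↥K) ∣ a := by
        have := orderOf_dvd_natCard s
        rw [Subgroup.orderOf_coe, ha]
        exact this
      exact orderOf_dvd_iff_pow_eq_one.mp h0
    have hh1 : (h : ↥K) ^ m = 1 := by
      have h0 : orderOf (h : ↥K) ∣ m := by
        have := orderOf_dvd_natCard h
        rw [Subgroup.orderOf_coe, hm]
        exact this
      exact orderOf_dvd_iff_pow_eq_one.mp h0
    have hc : Commute (s : ↥K) (h : ↥K) := hcomm s s.2 h h.2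
    have hs2 : (s : ↥K) ^ m = 1 := by
      have h0 := hc.mul_pow m
      rw [hsh', hz, hh1, mul_one] at h0
      exact h0.symm
    have hs3 : (s : ↥K) = 1 := by
      have h1 : orderOf (s : ↥K) ∣ a := orderOf_dvd_of_pow_eq_one hs1
      have h2 : orderOf (s : ↥K) ∣ m := orderOf_dvd_of_pow_eq_one hs2
      have h3 : orderOf (s : ↥K) ∣ 1 := by
        have h4 := Nat.dvd_gcd h2 h1
        rw [hcop.gcd_eq_one] at h4
        exact h4
      exact orderOf_eq_one_iff.mp (Nat.dvd_one.mp h3)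
    rw [← hsh', hs3, one_mul]
    exact h.2
  refine ⟨(S : Subgroup ↥K).map K.subtype, H₀.map K.subtype, (m : ℤ) * Nat.gcdA m a,
    (a : ℤ) * Nat.gcdB m a, Subgroup.map_subtype_le _, Subgroup.map_subtype_le _,
    S.isPGroup'.map _, ?_, ?_, ?_, ?_⟩
  · rw [Subgroup.card_map_of_injective K.subtype_injective, ← hm]
    exact hmp
  · rw [Subgroup.card_map_of_injective K.subtype_injective,
      Subgroup.card_map_of_injective K.subtype_injective, ← ha, ← hm]
    exact ham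
  · rintro _ ⟨s, hs, rfl⟩ _ ⟨h, hh, rfl⟩
    exact congrArg Subtype.val (hcomm s hs h hh)
  · intro y hy
    have hy1 : (⟨y, hy⟩ : ↥K) ^ (a * m) = 1 := by
      rw [ham]
      exact pow_card_eq_one'
    refine ⟨⟨⟨y, hy⟩ ^ ((m : ℤ) * Nat.gcdA m a), hmemS _ ?_, ?_⟩,
      ⟨⟨y, hy⟩ ^ ((a : ℤ) * Nat.gcdB m a), hmemH _ ?_, ?_⟩, ?_⟩
    · rw [← zpow_natCast, ← zpow_mul]
      have e : (m : ℤ) * Nat.gcdA m a * (a : ℤ) = ((a * m : ℕ) : ℤ) * Nat.gcdA m a := by
        push_cast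
        ring
      rw [e, zpow_mul, zpow_natCast, hy1, one_zpow]
    · simp
    · rw [← zpow_natCast, ← zpow_mul]
      have e : (a : ℤ) * Nat.gcdB m a * (m : ℤ) = ((a * m : ℕ) : ℤ) * Nat.gcdB m a := by
        push_cast
        ring
      rw [e, zpow_mul, zpow_natCast, hy1, one_zpow]
    · simp
    · rw [← zpow_add, ← hb]
      simp

theorem card_mul_relIndex' {H L : Subgroup G} (h : H ≤ L) :
    Nat.card H * H.relIndex L = Nat.card L := by
  have h1 := Subgroup.card_mul_index (H.subgroupOf L)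
  rw [Nat.card_congr (Subgroup.subgroupOfEquivOfLe h).toEquiv] at h1
  exact h1

theorem coprime_relIndex_of_le {H M L : Subgroup G} (hHM : H ≤ M) (hML : M ≤ L)
    (h : (Nat.card H).Coprime (H.relIndex L)) : (Nat.card H).Coprime (H.relIndex M) :=
  Nat.Coprime.coprime_dvd_right (Dvd.intro _ (Subgroup.relIndex_mul_relIndex H M L hHM hML)) h

theorem not_dvd_relIndex_of_le {p : ℕ} {H M L : Subgroup G} (hHM : H ≤ M) (hML : M ≤ L)
    (h : ¬ p ∣ H.relIndex L) : ¬ p ∣ H.relIndex M :=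
  fun h1 => h (h1.trans (Dvd.intro _ (Subgroup.relIndex_mul_relIndex H M L hHM hML)))

theorem isNilpotent_of_le' {A B : Subgroup G} (hB : Group.IsNilpotent ↥B) (h : A ≤ B) :
    Group.IsNilpotent ↥A := by
  have h1 : Group.IsNilpotent ↥(A.subgroupOf B) := inferInstance
  exact Group.nilpotent_of_mulEquiv (Subgroup.subgroupOfEquivOfLe h)

end rel

section main

variable {G : Type u} [Group G] [Finite G]

/-- Sylow normalizers control fusion of elements in every subgroup. -/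
def SylFus (G : Type u) [Group G] : Prop :=
  ∀ (p : ℕ) [Fact p.Prime] (L P : Subgroup G), P ≤ L → IsPGroup p P → ¬ p ∣ P.relIndex L →
    ∀ u ∈ P, ∀ c ∈ L, c * u * c⁻¹ ∈ P →
      ∃ n ∈ L, n ∈ Subgroup.normalizer (P : Set G) ∧ ∃ e ∈ L, e * u = u * e ∧ c = n * e

theorem nil_hall_fusion_aux (hA : SylFus G)
    (hSol : ∀ M : Subgroup G, M ≠ ⊤ → Group.IsSolvable ↥M)
    (hZ : ∀ u : G, u ≠ 1 → Subgroup.centralizer ({u} : Set G) ≠ ⊤) :
    ∀ (N : ℕ) (L K : Subgroup G), Nat.card K ≤ N → K ≤ L → Group.IsNilpotent ↥K →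
      (Nat.card K).Coprime (K.relIndex L) →
      ∀ x ∈ K, ∀ c ∈ L, c * x * c⁻¹ ∈ K →
        ∃ n ∈ L, n ∈ Subgroup.normalizer (K : Set G) ∧ ∃ e ∈ L, e * x = x * e ∧ c = n * e := by
  intro N
  induction N with
  | zero =>
    intro L K hN
    have := Nat.card_pos (α := K)
    omega
  | succ N ih =>
    intro L K hN hKL hKn hHall x hx c hc hcx
    by_cases hK1 : Nat.card K = 1
    · have hKbot : K = ⊥ := Subgroup.card_eq_one.mp hK1
      have hx1 : x = 1 := by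
        rw [hKbot] at hx
        exact Subgroup.mem_bot.mp hx
      exact ⟨1, one_mem _, one_mem _, c, hc, by rw [hx1, mul_one, one_mul], (one_mul c).symm⟩
    obtain ⟨p, hp, hpK⟩ := Nat.exists_prime_and_dvd hK1
    haveI : Fact p.Prime := ⟨hp⟩
    obtain ⟨P, K', i, j, hPK, hK'K, hPp, hK'p, hcard, hcomm, hpow⟩ := nil_decomp K hKn p
    have hPL : P ≤ L := hPK.trans hKL
    have hK'L : K' ≤ L := hK'K.trans hKL
    -- arithmetic facts
    have hpP : p ∣ Nat.card P := by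
      rw [← hcard] at hpK
      rcases (Nat.Prime.dvd_mul hp).mp hpK with h1 | h1
      · exact h1
      · exact absurd h1 ((Nat.Prime.coprime_iff_not_dvd hp).mp hK'p.symm)
    have hPpos : 0 < Nat.card P := Nat.card_pos
    have hK'pos : 0 < Nat.card K' := Nat.card_pos
    have hP1 : 1 < Nat.card P := lt_of_lt_of_le hp.one_lt (Nat.le_of_dvd hPpos hpP)
    have hK'lt : Nat.card K' ≤ N := by
      have h1 : Nat.card K' < Nat.card P * Nat.card K' := by nlinarith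
      omega
    obtain ⟨kk, hkk⟩ := IsPGroup.iff_card.mp hPp
    have hK'P : (Nat.card K').Coprime (Nat.card P) := by
      rw [hkk]
      exact Nat.Coprime.pow_right kk hK'p
    have hK'dvd : Nat.card K' ∣ Nat.card K := Dvd.intro_left _ hcard
    have hPdvd : Nat.card P ∣ Nat.card K := Dvd.intro _ hcard
    -- index facts
    have hidxP : P.relIndex L = Nat.card K' * K.relIndex L := by
      have h1 := card_mul_relIndex' hPL
      have h2 := card_mul_relIndex' hKL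
      rw [← h2, ← hcard, mul_assoc] at h1
      exact Nat.eq_of_mul_eq_mul_left hPpos h1
    have hidxK' : K'.relIndex L = Nat.card P * K.relIndex L := by
      have h1 := card_mul_relIndex' hK'L
      have h2 := card_mul_relIndex' hKL
      rw [← h2, ← hcard, mul_comm (Nat.card P), mul_assoc] at h1
      exact Nat.eq_of_mul_eq_mul_left hK'pos h1
    have hsylL : ¬ p ∣ P.relIndex L := by
      rw [hidxP]
      intro h1
      rcases (Nat.Prime.dvd_mul hp).mp h1 with h2 | h2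
      · exact (Nat.Prime.coprime_iff_not_dvd hp).mp hK'p.symm h2
      · have h3 : p ∣ Nat.gcd (Nat.card K) (K.relIndex L) := Nat.dvd_gcd hpK h2
        rw [hHall.gcd_eq_one] at h3
        exact hp.one_lt.ne' (Nat.dvd_one.mp h3)
    have hHallK' : (Nat.card K').Coprime (K'.relIndex L) := by
      rw [hidxK']
      exact Nat.Coprime.mul_right hK'P (Nat.Coprime.coprime_dvd_left hK'dvd hHall)
    -- `P ≠ ⊥`
    obtain ⟨u₀, hu₀P, hu₀⟩ : ∃ u₀ ∈ P, u₀ ≠ 1 := by
      by_contra hcon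
      push Not at hcon
      have hPbot : P = ⊥ := (Subgroup.eq_bot_iff_forall P).mpr hcon
      rw [hPbot, Subgroup.card_bot] at hP1
      exact lt_irrefl _ hP1
    -- normalizing `P` and `K'` means normalizing `K`
    have hNK : ∀ n : G, n ∈ Subgroup.normalizer (P : Set G) →
        n ∈ Subgroup.normalizer (K' : Set G) → n ∈ Subgroup.normalizer (K : Set G) := by
      intro n hnP hnK'
      apply Cfsg.Agent.Lib.Helper64.BG.mem_normalizer_of_conj
      intro y hy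
      obtain ⟨h1, h2, h3⟩ := hpow y hy
      have e : n * y * n⁻¹ = (n * y ^ i * n⁻¹) * (n * y ^ j * n⁻¹) := by
        conv_lhs => rw [← h3]
        group
      rw [e]
      exact K.mul_mem (hPK ((Subgroup.mem_normalizer_iff.mp hnP _).mp h1))
        (hK'K ((Subgroup.mem_normalizer_iff.mp hnK' _).mp h2))
    -- the parts of `x`
    obtain ⟨hsP, hhK', hsh⟩ := hpow x hx
    obtain ⟨hs'P, hh'K', -⟩ := hpow (c * x * c⁻¹) hcx
    rw [conj_zpow] at hs'P hh'K'
    obtain ⟨s, hs⟩ : ∃ s, s = x ^ i := ⟨_, rfl⟩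
    obtain ⟨h, hh⟩ : ∃ h, h = x ^ j := ⟨_, rfl⟩
    rw [← hs] at hsP hs'P hsh
    rw [← hh] at hhK' hh'K' hsh
    -- Step 1
    obtain ⟨n₁, hn₁L, hn₁P, e₁, he₁L, he₁s, hc1⟩ := hA p L P hPL hPp hsylL s hsP c hc hs'P
    -- Step 2
    have hK'C : K' ≤ L ⊓ Subgroup.centralizer (P : Set G) := by
      intro v hv
      refine Subgroup.mem_inf.mpr ⟨hK'L hv, ?_⟩
      rw [Subgroup.mem_centralizer_iff]
      intro u hu
      exact hcomm u hu v hv
    have hK₁C : K'.map (MulAut.conj n₁⁻¹).toMonoidHom ≤ L ⊓ Subgroup.centralizer (P : Set G) := by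
      rintro _ ⟨v, hv, rfl⟩
      have e0 : (MulAut.conj n₁⁻¹).toMonoidHom v = n₁⁻¹ * v * n₁ := by simp
      rw [e0]
      refine Subgroup.mem_inf.mpr ⟨L.mul_mem (L.mul_mem (L.inv_mem hn₁L) (hK'L hv)) hn₁L, ?_⟩
      rw [Subgroup.mem_centralizer_iff]
      intro u hu
      have h1 : n₁ * u * n₁⁻¹ ∈ P := (Subgroup.mem_normalizer_iff.mp hn₁P u).mp hu
      have h2 := hcomm _ h1 v hv
      calc u * (n₁⁻¹ * v * n₁) = n₁⁻¹ * ((n₁ * u * n₁⁻¹) * v) * n₁ := by group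
        _ = n₁⁻¹ * (v * (n₁ * u * n₁⁻¹)) * n₁ := by rw [h2]
        _ = n₁⁻¹ * v * n₁ * u := by group
    have hCtop : L ⊓ Subgroup.centralizer (P : Set G) ≠ ⊤ := by
      intro h1
      apply hZ u₀ hu₀
      rw [eq_top_iff]
      intro g _
      have h2 : g ∈ L ⊓ Subgroup.centralizer (P : Set G) := by
        rw [h1]
        exact Subgroup.mem_top g
      rw [Subgroup.mem_centralizer_iff]
      intro u hu
      rw [Set.mem_singleton_iff] at hu
      rw [hu]
      exact Subgroup.mem_centralizer_iff.mp h2.2 u₀ hu₀P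
    obtain ⟨d, hdC, hd⟩ := rel_hall_conj (L ⊓ Subgroup.centralizer (P : Set G))
      (K'.map (MulAut.conj n₁⁻¹).toMonoidHom) K' (hSol _ hCtop) hK₁C hK'C
      (Subgroup.card_map_of_injective (MulAut.conj n₁⁻¹).injective)
      (coprime_relIndex_of_le hK'C inf_le_left hHallK')
    have hdP : d ∈ Subgroup.normalizer (P : Set G) := Subgroup.centralizer_le_normalizer _ hdC.2
    have hn₂K' : n₁ * d⁻¹ ∈ Subgroup.normalizer (K' : Set G) := by
      have h1 : (n₁ * d⁻¹)⁻¹ ∈ Subgroup.normalizer (K' : Set G) := by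
        apply Cfsg.Agent.Lib.Helper64.BG.mem_normalizer_of_conj
        intro v hv
        have h2 := hd _ ⟨v, hv, rfl⟩
        have e0 : (MulAut.conj n₁⁻¹).toMonoidHom v = n₁⁻¹ * v * n₁ := by simp
        rw [e0] at h2
        have e : (n₁ * d⁻¹)⁻¹ * v * (n₁ * d⁻¹)⁻¹⁻¹ = d * (n₁⁻¹ * v * n₁) * d⁻¹ := by group
        rw [e]
        exact h2
      have h3 := Subgroup.inv_mem _ h1
      rw [inv_inv] at h3
      exact h3
    have hn₂P : n₁ * d⁻¹ ∈ Subgroup.normalizer (P : Set G) :=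
      Subgroup.mul_mem _ hn₁P (Subgroup.inv_mem _ hdP)
    have hn₂L : n₁ * d⁻¹ ∈ L := L.mul_mem hn₁L (L.inv_mem hdC.1)
    have hds : d * s = s * d := (Subgroup.mem_centralizer_iff.mp hdC.2 s hsP).symm
    have he₂L : d * e₁ ∈ L := L.mul_mem hdC.1 he₁L
    have he₂s : (d * e₁) * s = s * (d * e₁) := by
      calc d * e₁ * s = d * (e₁ * s) := by group
        _ = d * (s * e₁) := by rw [he₁s]
        _ = (d * s) * e₁ := by group
        _ = (s * d) * e₁ := by rw [hds]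
        _ = s * (d * e₁) := by group
    have hc2 : c = (n₁ * d⁻¹) * (d * e₁) := by
      rw [hc1]
      group
    -- Step 3
    have hstep3 : (d * e₁) * h * (d * e₁)⁻¹ ∈ K' := by
      have e : (d * e₁) * h * (d * e₁)⁻¹ = (n₁ * d⁻¹)⁻¹ * (c * h * c⁻¹) * (n₁ * d⁻¹)⁻¹⁻¹ := by
        rw [hc2]
        group
      rw [e]
      exact (Subgroup.mem_normalizer_iff.mp (Subgroup.inv_mem _ hn₂K') _).mp hh'K'
    -- Step 4
    have hK'L₁ : K' ≤ L ⊓ Subgroup.centralizer ({s} : Set G) := by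
      intro v hv
      refine Subgroup.mem_inf.mpr ⟨hK'L hv, ?_⟩
      rw [Subgroup.mem_centralizer_iff]
      intro u hu
      rw [Set.mem_singleton_iff] at hu
      rw [hu]
      exact hcomm s hsP v hv
    have he₂L₁ : d * e₁ ∈ L ⊓ Subgroup.centralizer ({s} : Set G) := by
      refine Subgroup.mem_inf.mpr ⟨he₂L, ?_⟩
      rw [Subgroup.mem_centralizer_iff]
      intro u hu
      rw [Set.mem_singleton_iff] at hu
      rw [hu]
      exact he₂s.symm
    obtain ⟨m, hmL₁, hmK', e₃, he₃L₁, he₃h, hc3⟩ :=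
      ih (L ⊓ Subgroup.centralizer ({s} : Set G)) K' hK'lt hK'L₁ (isNilpotent_of_le' hKn hK'K)
        (coprime_relIndex_of_le hK'L₁ inf_le_left hHallK') h hhK' (d * e₁) he₂L₁ hstep3
    have hmL : m ∈ L := hmL₁.1
    have hms : s * m = m * s :=
      Subgroup.mem_centralizer_iff.mp hmL₁.2 s (Set.mem_singleton s)
    have he₃L : e₃ ∈ L := he₃L₁.1
    have he₃s : s * e₃ = e₃ * s :=
      Subgroup.mem_centralizer_iff.mp he₃L₁.2 s (Set.mem_singleton s)
    -- Step 5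
    have hPC' : P ≤ L ⊓ Subgroup.centralizer (K' : Set G) := by
      intro u hu
      refine Subgroup.mem_inf.mpr ⟨hPL hu, ?_⟩
      rw [Subgroup.mem_centralizer_iff]
      intro v hv
      exact (hcomm u hu v hv).symm
    have hP₁C' : P.map (MulAut.conj m).toMonoidHom ≤ L ⊓ Subgroup.centralizer (K' : Set G) := by
      rintro _ ⟨u, hu, rfl⟩
      have e0 : (MulAut.conj m).toMonoidHom u = m * u * m⁻¹ := by simp
      rw [e0]
      refine Subgroup.mem_inf.mpr ⟨L.mul_mem (L.mul_mem hmL (hPL hu)) (L.inv_mem hmL), ?_⟩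
      rw [Subgroup.mem_centralizer_iff]
      intro v hv
      have h1 : m⁻¹ * v * m⁻¹⁻¹ ∈ K' :=
        (Subgroup.mem_normalizer_iff.mp (Subgroup.inv_mem _ hmK') v).mp hv
      have h2 := hcomm u hu _ h1
      calc v * (m * u * m⁻¹) = m * ((m⁻¹ * v * m⁻¹⁻¹) * u) * m⁻¹ := by group
        _ = m * (u * (m⁻¹ * v * m⁻¹⁻¹)) * m⁻¹ := by rw [h2]
        _ = m * u * m⁻¹ * v := by group
    have hsylC' : ¬ p ∣ P.relIndex (L ⊓ Subgroup.centralizer (K' : Set G)) :=
      not_dvd_relIndex_of_le hPC' inf_le_left hsylL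
    obtain ⟨c₂, hc₂C', hc₂⟩ := rel_sylow_conj (L ⊓ Subgroup.centralizer (K' : Set G))
      (P.map (MulAut.conj m).toMonoidHom) P hP₁C' (hPp.map _) hPp hsylC'
    have hn₃P : c₂ * m ∈ Subgroup.normalizer (P : Set G) := by
      apply Cfsg.Agent.Lib.Helper64.BG.mem_normalizer_of_conj
      intro u hu
      have h2 := hc₂ _ ⟨u, hu, rfl⟩
      have e0 : (MulAut.conj m).toMonoidHom u = m * u * m⁻¹ := by simp
      rw [e0] at h2
      have e : c₂ * m * u * (c₂ * m)⁻¹ = c₂ * (m * u * m⁻¹) * c₂⁻¹ := by group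
      rw [e]
      exact h2
    have hn₃K' : c₂ * m ∈ Subgroup.normalizer (K' : Set G) :=
      Subgroup.mul_mem _ (Subgroup.centralizer_le_normalizer _ hc₂C'.2) hmK'
    have hn₃L : c₂ * m ∈ L := L.mul_mem hc₂C'.1 hmL
    have htP : (c₂ * m) * s * (c₂ * m)⁻¹ ∈ P := (Subgroup.mem_normalizer_iff.mp hn₃P s).mp hsP
    have hc₂t : c₂⁻¹ * ((c₂ * m) * s * (c₂ * m)⁻¹) * c₂⁻¹⁻¹ ∈ P := by
      have e : c₂⁻¹ * ((c₂ * m) * s * (c₂ * m)⁻¹) * c₂⁻¹⁻¹ = (m * s) * m⁻¹ := by group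
      rw [e, ← hms]
      have e2 : s * m * m⁻¹ = s := by group
      rw [e2]
      exact hsP
    -- Step 6
    obtain ⟨n₄, hn₄C', hn₄P, e₄, he₄C', he₄t, hc4⟩ :=
      hA p (L ⊓ Subgroup.centralizer (K' : Set G)) P hPC' hPp hsylC' _ htP c₂⁻¹
        (Subgroup.inv_mem _ hc₂C') hc₂t
    have hn₄K' : n₄ ∈ Subgroup.normalizer (K' : Set G) :=
      Subgroup.centralizer_le_normalizer _ hn₄C'.2
    have he₅s : ((c₂ * m)⁻¹ * e₄ * (c₂ * m)) * s = s * ((c₂ * m)⁻¹ * e₄ * (c₂ * m)) := by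
      calc ((c₂ * m)⁻¹ * e₄ * (c₂ * m)) * s
          = (c₂ * m)⁻¹ * (e₄ * ((c₂ * m) * s * (c₂ * m)⁻¹)) * (c₂ * m) := by group
        _ = (c₂ * m)⁻¹ * (((c₂ * m) * s * (c₂ * m)⁻¹) * e₄) * (c₂ * m) := by rw [he₄t]
        _ = s * ((c₂ * m)⁻¹ * e₄ * (c₂ * m)) := by group
    have he₅h : ((c₂ * m)⁻¹ * e₄ * (c₂ * m)) * h = h * ((c₂ * m)⁻¹ * e₄ * (c₂ * m)) := by
      have h1 : (c₂ * m) * h * (c₂ * m)⁻¹ ∈ K' :=
        (Subgroup.mem_normalizer_iff.mp hn₃K' h).mp hhK'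
      have h2 := Subgroup.mem_centralizer_iff.mp he₄C'.2 _ h1
      calc ((c₂ * m)⁻¹ * e₄ * (c₂ * m)) * h
          = (c₂ * m)⁻¹ * (e₄ * ((c₂ * m) * h * (c₂ * m)⁻¹)) * (c₂ * m) := by group
        _ = (c₂ * m)⁻¹ * (((c₂ * m) * h * (c₂ * m)⁻¹) * e₄) * (c₂ * m) := by rw [h2]
        _ = h * ((c₂ * m)⁻¹ * e₄ * (c₂ * m)) := by group
    have he₅L : (c₂ * m)⁻¹ * e₄ * (c₂ * m) ∈ L :=
      L.mul_mem (L.mul_mem (L.inv_mem hn₃L) he₄C'.1) hn₃L
    have hm5 : m = (n₄ * (c₂ * m)) * ((c₂ * m)⁻¹ * e₄ * (c₂ * m)) := by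
      have e : (n₄ * (c₂ * m)) * ((c₂ * m)⁻¹ * e₄ * (c₂ * m)) = (n₄ * e₄) * c₂ * m := by group
      rw [e, ← hc4]
      group
    -- Step 7
    refine ⟨(n₁ * d⁻¹) * (n₄ * (c₂ * m)), L.mul_mem hn₂L (L.mul_mem hn₄C'.1 hn₃L), ?_,
      ((c₂ * m)⁻¹ * e₄ * (c₂ * m)) * e₃, L.mul_mem he₅L he₃L, ?_, ?_⟩
    · exact Subgroup.mul_mem _ (hNK _ hn₂P hn₂K')
        (Subgroup.mul_mem _ (hNK _ hn₄P hn₄K') (hNK _ hn₃P hn₃K'))
    · have c1 : Commute ((c₂ * m)⁻¹ * e₄ * (c₂ * m)) s := he₅s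
      have c2 : Commute ((c₂ * m)⁻¹ * e₄ * (c₂ * m)) h := he₅h
      have c3 : Commute e₃ s := he₃s.symm
      have c4 : Commute e₃ h := he₃h
      rw [← hsh]
      exact ((c1.mul_right c2).mul_left (c3.mul_right c4)).eq
    · rw [hc2, hc3]
      conv_lhs => rw [hm5]
      group

theorem nil_hall_fusion (hA : SylFus G)
    (hSol : ∀ M : Subgroup G, M ≠ ⊤ → Group.IsSolvable ↥M)
    (hZ : ∀ u : G, u ≠ 1 → Subgroup.centralizer ({u} : Set G) ≠ ⊤)
    (K : Subgroup G) (hKn : Group.IsNilpotent ↥K) (hHall : (Nat.card K).Coprime K.index) :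
    ∀ x ∈ K, ∀ g : G, g * x * g⁻¹ ∈ K →
      ∃ n ∈ Subgroup.normalizer (K : Set G), n * x * n⁻¹ = g * x * g⁻¹ := by
  intro x hx g hg
  have hHall' : (Nat.card K).Coprime (K.relIndex ⊤) := by
    rw [Subgroup.relIndex_top_right]
    exact hHall
  obtain ⟨n, -, hn, e, -, he, hge⟩ := nil_hall_fusion_aux hA hSol hZ (Nat.card K) ⊤ K le_rfl
    le_top hKn hHall' x hx g (Subgroup.mem_top g) hg
  refine ⟨n, hn, ?_⟩
  rw [hge]
  calc n * x * n⁻¹ = n * (x * e) * e⁻¹ * n⁻¹ := by group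
    _ = n * (e * x) * e⁻¹ * n⁻¹ := by rw [he]
    _ = n * e * x * (n * e)⁻¹ := by group

end main

end Cfsg.Agent.Lib.Helper16.BG
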