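import Mathlib
import Cfsg.Prelude.Def_Local
import Cfsg.Prelude.Def_OddOrder
import Cfsg.Agent.S1461
import Cfsg.Agent.Lib.Helper16.BG.NilHall

/-!
# Bender–Glauberman Corollary 10.7 (b) from `p`-length one (Theorem 10.6 = S1410)  (helper16)

In a minimal simple group of odd order in which every proper subgroup has `p`-length one for all
primes `p`, the normalizer of a nilpotent Hall subgroup `H` controls fusion of elements of `H`.
-/

set_option autoImplicit false

namespace Cfsg.Agent.Lib.Helper16.BG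

open Cfsg

/-- Sylow normalizers control fusion in every subgroup of a minimal simple group whose proper
subgroups have `p`-length one. -/
theorem sylFus_of_plength {G : Type*} [Group G] [Finite G] (hG : Cfsg.IsMinSimpleOddOrder G)
    (h1410 : ∀ (p : ℕ) [Fact p.Prime] (H : Subgroup G), H ≠ ⊤ → Cfsg.PLengthLE p 1 H) :
    SylFus G := by
  intro p _ L P hPL hPp hsyl u hu c hc hcu
  by_cases hL : L = ⊤
  · subst hL
    have hsyl' : ¬ p ∣ P.index := by
      rw [Subgroup.relIndex_top_right] at hsyl
      exact hsyl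
    have hcoe : ((hPp.toSylow hsyl' : Sylow p G) : Subgroup G) = P := hPp.toSylow_coe hsyl'
    have hQP : Subgroup.zpowers u ≤ ((hPp.toSylow hsyl' : Sylow p G) : Subgroup G) := by
      rw [hcoe]
      exact (Subgroup.zpowers_le (H := P)).mpr hu
    obtain ⟨y, hy, c', hc', hyc⟩ := Cfsg.Agent.Lib.Helper64.BG.fusion_factor hG.2.1
      (fun H hH => h1410 p H hH) (hPp.toSylow hsyl') (Subgroup.zpowers u) hQP c (by
        intro q hq
        obtain ⟨k, rfl⟩ := Subgroup.mem_zpowers_iff.mp hq
        rw [← conj_zpow, hcoe]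
        exact Subgroup.zpow_mem _ hcu k)
    rw [hcoe] at hy
    exact ⟨y, Subgroup.mem_top y, hy, c', Subgroup.mem_top c',
      (Subgroup.mem_centralizer_iff.mp hc' u (Subgroup.mem_zpowers u)).symm, hyc⟩
  · haveI : Group.IsSolvable ↥L := hG.2.2.2 L hL
    have hpl := h1410 p L hL
    have hq : IsPGroup p (P.subgroupOf L) := hPp.comap_subtype
    have hsylq : ¬ p ∣ (P.subgroupOf L).index := hsyl
    have hcoe : ((hq.toSylow hsylq : Sylow p ↥L) : Subgroup ↥L) = P.subgroupOf L :=
      hq.toSylow_coe hsylq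
    obtain ⟨g, hg, c', hc', hgc⟩ := (Cfsg.Agent.S1461.result p hpl (hq.toSylow hsylq)).2.1
      {⟨u, hPL hu⟩} ⟨c, hc⟩ (by
        intro z hz
        rw [Set.mem_singleton_iff] at hz
        rw [hz]
        show (⟨u, hPL hu⟩ : ↥L) ∈ ((hq.toSylow hsylq : Sylow p ↥L) : Subgroup ↥L)
        rw [hcoe]
        exact Subgroup.mem_subgroupOf.mpr hu) (by
        rintro _ ⟨z, hz, rfl⟩
        rw [Set.mem_singleton_iff] at hz
        rw [hz]
        show (⟨c, hc⟩ * ⟨u, hPL hu⟩ * (⟨c, hc⟩ : ↥L)⁻¹ : ↥L) ∈
          ((hq.toSylow hsylq : Sylow p ↥L) : Subgroup ↥L)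
        rw [hcoe]
        exact Subgroup.mem_subgroupOf.mpr hcu)
    rw [hcoe] at hg
    refine ⟨(g : G), g.2, ?_, (c' : G), c'.2, ?_, ?_⟩
    · apply Cfsg.Agent.Lib.Helper64.BG.mem_normalizer_of_conj
      intro v hv
      have h1 := (Subgroup.mem_normalizer_iff.mp hg ⟨v, hPL hv⟩).mp (Subgroup.mem_subgroupOf.mpr hv)
      exact Subgroup.mem_subgroupOf.mp h1
    · have h1 := Subgroup.mem_centralizer_iff.mp hc' ⟨u, hPL hu⟩ (Set.mem_singleton _)
      exact (congrArg Subtype.val h1).symm
    · exact (congrArg Subtype.val hgc).symm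

/-- **S1384 from S1410**: in a minimal simple group of odd order, the normalizer of a nilpotent
Hall subgroup controls fusion of its elements. -/
theorem s1384_core {G : Type*} [Group G] [Finite G] (hG : Cfsg.IsMinSimpleOddOrder G)
    (h1410 : ∀ (p : ℕ) [Fact p.Prime] (H : Subgroup G), H ≠ ⊤ → Cfsg.PLengthLE p 1 H)
    (H : Subgroup G) (hHn : Group.IsNilpotent H) (hHall : (Nat.card H).Coprime H.index) :
    ∀ x ∈ H, ∀ g : G, g * x * g⁻¹ ∈ H →
      ∃ n ∈ Subgroup.normalizer (H : Set G), n * x * n⁻¹ = g * x * g⁻¹ := by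
  have hS : IsSimpleGroup G := hG.2.1
  have hZ : ∀ u : G, u ≠ 1 → Subgroup.centralizer ({u} : Set G) ≠ ⊤ := by
    intro u hu htop
    -- `u` is central, so the centre is everything and `G` is commutative
    have hucen : u ∈ Subgroup.center G := by
      rw [Subgroup.mem_center_iff]
      intro g
      have h1 : g ∈ Subgroup.centralizer ({u} : Set G) := by
        rw [htop]
        exact Subgroup.mem_top g
      exact (Subgroup.mem_centralizer_iff.mp h1 u (Set.mem_singleton u)).symm
    have hcen : Subgroup.center G = ⊤ := by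
      rcases (Subgroup.Normal.eq_bot_or_eq_top (inferInstance : (Subgroup.center G).Normal)) with h1 | h1
      · rw [h1, Subgroup.mem_bot] at hucen
        exact absurd hucen hu
      · exact h1
    apply hG.2.2.1
    refine ⟨⟨fun a b => ?_⟩⟩
    have ha : a ∈ Subgroup.center G := by
      rw [hcen]
      exact Subgroup.mem_top a
    exact (Subgroup.mem_center_iff.mp ha b).symm
  exact nil_hall_fusion (sylFus_of_plength hG h1410) hG.2.2.2 hZ H hHn hHall

end Cfsg.Agent.Lib.Helper16.BG
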